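import Mathlib.Algebra.Field.MinimalAxioms
import Mathlib.Data.Fintype.Card

/-! The field with four elements, as a finite type with tables. -/

set_option autoImplicit false

namespace H29.CosetCert

/-- The field with four elements. -/
inductive K4
  | e0 | e1 | e2 | e3
  deriving DecidableEq

namespace K4

instance instFintype : Fintype K4 := ⟨{e0, e1, e2, e3}, fun a => by cases a <;> decide⟩

theorem card_eq : Fintype.card K4 = 4 := rfl

/-- The code of an element. -/
def code : K4 → ℕ
  | e0 => 0
  | e1 => 1
  | e2 => 2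
  | e3 => 3

/-- The element of a code. -/
def ofCode : ℕ → K4
  | 0 => e0
  | 1 => e1
  | 2 => e2
  | _ => e3

/-- Addition. -/
def add : K4 → K4 → K4
  | e0, b => b
  | a, e0 => a
  | e1, e1 => e0
  | e2, e2 => e0
  | e3, e3 => e0
  | e1, e2 => e3
  | e2, e1 => e3
  | e1, e3 => e2
  | e3, e1 => e2
  | e2, e3 => e1
  | e3, e2 => e1

/-- Multiplication. -/
def mul : K4 → K4 → K4
  | e0, _ => e0
  | _, e0 => e0
  | e1, b => b
  | a, e1 => a
  | e2, e2 => e3
  | e2, e3 => e1
  | e3, e2 => e1
  | e3, e3 => e2

/-- Inversion. -/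
def inv : K4 → K4
  | e0 => e0
  | e1 => e1
  | e2 => e3
  | e3 => e2

instance instAdd : Add K4 := ⟨add⟩
instance instMul : Mul K4 := ⟨mul⟩
instance instNeg : Neg K4 := ⟨id⟩
instance instInv : Inv K4 := ⟨inv⟩
instance instZero : Zero K4 := ⟨e0⟩
instance instOne : One K4 := ⟨e1⟩

instance instField : Field K4 :=
  Field.ofMinimalAxioms K4
    (by intro a b c; cases a <;> cases b <;> cases c <;> rfl)
    (by intro a; cases a <;> rfl)
    (by intro a; cases a <;> rfl)
    (by intro a b c; cases a <;> cases b <;> cases c <;> rfl)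
    (by intro a b; cases a <;> cases b <;> rfl)
    (by intro a; cases a <;> rfl)
    (by intro a h; cases a <;> first | rfl | exact absurd rfl h)
    rfl
    (by intro a b c; cases a <;> cases b <;> cases c <;> rfl)
    ⟨e0, e1, by decide⟩

end K4

end H29.CosetCert
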