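import Cfsg.Agent.H29.CosetCert.He.SpData
import Cfsg.Agent.H29.CosetCert.He.K4
import Cfsg.Agent.H29.CosetCert.HeOrder.Cert
import Cfsg.Agent.SpGeom.Order
import Mathlib.LinearAlgebra.SymplecticGroup

/-! An index-2 subgroup of the point stabilizer of the presented He is the group Sp(4,4). -/

set_option autoImplicit false
set_option maxRecDepth 16000

namespace H29.CosetCert.HeSp

open H29.CosetCert Matrix

local notation "G" => Cfsg.Spor.He

/-- The natural module. -/
abbrev V := Fin 2 ⊕ Fin 2 → K4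

/-- The code of a vector. -/
def enc (x : V) : ℕ :=
  64 * (x (.inl 0)).code + 16 * (x (.inl 1)).code + 4 * (x (.inr 0)).code + (x (.inr 1)).code

/-- The vector of a code. -/
def dec (i : ℕ) : V
  | .inl 0 => K4.ofCode (i / 64 % 4)
  | .inl 1 => K4.ofCode (i / 16 % 4)
  | .inr 0 => K4.ofCode (i / 4 % 4)
  | .inr 1 => K4.ofCode (i % 4)

theorem enc_lt (x : V) : enc x < 256 := by
  have h : ∀ a : K4, a.code < 4 := fun a => by cases a <;> decide
  have h0 := h (x (.inl 0))
  have h1 := h (x (.inl 1))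
  have h2 := h (x (.inr 0))
  have h3 := h (x (.inr 1))
  unfold enc
  omega

theorem dec_enc (x : V) : dec (enc x) = x := by
  have key : ∀ a b c d : K4, ∀ r : Fin 2 ⊕ Fin 2,
      dec (64 * a.code + 16 * b.code + 4 * c.code + d.code) r =
        Sum.elim ![a, b] ![c, d] r := by decide +kernel
  funext r
  have h := key (x (.inl 0)) (x (.inl 1)) (x (.inr 0)) (x (.inr 1)) r
  refine h.trans ?_
  rcases r with r | r <;> fin_cases r <;> rfl

/-- The position of an index. -/
def pos : Fin 2 ⊕ Fin 2 → ℕ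
  | .inl i => i
  | .inr i => 2 + i

/-- A matrix from a list of codes. -/
def mkMat (l : List ℕ) : Matrix (Fin 2 ⊕ Fin 2) (Fin 2 ⊕ Fin 2) K4 :=
  Matrix.of fun r s => K4.ofCode (l.getD (4 * pos r + pos s) 0)

/-- The codes of the matrices. -/
def codes : List (List ℕ) :=
  [[1, 0, 0, 0, 0, 1, 0, 0, 0, 0, 1, 0, 0, 2, 0, 1],
    [1, 0, 0, 0, 0, 1, 0, 0, 1, 0, 1, 0, 0, 0, 0, 1],
    [2, 0, 2, 0, 0, 1, 0, 0, 1, 0, 2, 0, 0, 2, 0, 1],
    [1, 0, 0, 0, 0, 1, 0, 0, 3, 0, 1, 0, 0, 2, 0, 1],
    [1, 0, 0, 0, 0, 1, 0, 0, 3, 1, 1, 0, 1, 0, 0, 1],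
    [1, 0, 0, 0, 0, 1, 0, 3, 0, 0, 1, 0, 0, 2, 0, 0]]

/-- The image table of generator `k`. -/
def mv (k i : ℕ) : ℕ := (HeSpData.mvT.getD k 0 >>> (8 * i)) % 256

theorem mat_ok : ∀ k : Fin 6,
    mkMat (codes.getD k []) * Matrix.J (Fin 2) K4 * (mkMat (codes.getD k []))ᵀ =
      Matrix.J (Fin 2) K4 := by decide +kernel

theorem mv_ok : allIn (fun k => allIn (fun i =>
    enc (mkMat (codes.getD k []) *ᵥ dec i) == mv k i) 0 256) 0 6 = true := by decide +kernel

/-- Check one vector block. -/
def rowChk (k c : ℕ) : ℕ → Bool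
  | 0 => HeData.orb3.testBit 0 && allIn (fun i => HeSpData.f 0 (mv k i) == HeSpData.f c i) 0 256
  | d + 1 => HeData.orb3.testBit (d + 1) &&
      allIn (fun i => HeSpData.f (d + 1) (mv k i) == HeSpData.f c i) 0 256

theorem rowChk_iff (k c d : ℕ) : rowChk k c d = true ↔ HeData.orb3.testBit d = true ∧
    ∀ i < 256, HeSpData.f d (mv k i) = HeSpData.f c i := by
  cases d <;> simp [rowChk, allIn_iff]

theorem gen_ok : allIn (fun k => allIn (fun c => bif HeData.orb3.testBit c then
    rowChk k c (runR HeData.T (HeSpData.W.getD k []) c) else true) 0 2058) 0 6 = true := by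
  decide +kernel

theorem sep_vec : allIn (fun i => HeSpData.keys.idxOf
    (HeSpData.f (HeSpData.selP.getD 0 0) i + 4 * HeSpData.f (HeSpData.selP.getD 1 0) i +
      16 * HeSpData.f (HeSpData.selP.getD 2 0) i + 64 * HeSpData.f (HeSpData.selP.getD 3 0) i +
      256 * HeSpData.f (HeSpData.selP.getD 4 0) i) == i) 0 256 = true := by decide +kernel

theorem sel_mem : HeSpData.selP.all (fun c => Nat.blt c 2058 && HeData.orb3.testBit c) = true := by
  decide +kernel

theorem sep_pt : allIn (fun c => bif HeData.orb3.testBit c then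
    HeSpData.pts.getD (HeSpData.keys2.idxOf (HeSpData.f c 64 + 4 * HeSpData.f c 16 +
      16 * HeSpData.f c 4 + 64 * HeSpData.f c 1)) 0 == c else true) 0 2058 = true := by
  decide +kernel

theorem chainH_ok : chainW HeData.T 2058 HeSpData.chainH = true := by decide +kernel

theorem chainN_ok : chainW HeData.T 2058 HeSpData.chainN = true := by decide +kernel

theorem chainH_base : (HeSpData.chainH.all fun l => HeData.orb3.testBit l.b) = true := by
  decide +kernel

theorem chainH_mem : (HeSpData.chainH.all fun l => l.U.all fun u =>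
    allIn (fun i => runR HeData.T u 0 == 0) 0 1) = true := by decide +kernel

/-- The smaller group. -/
noncomputable def N0 : Subgroup G :=
  Subgroup.closure {e | ∃ w ∈ HeSpData.W, e = (w.map HeCert.g).prod}

theorem fix_zero_mem {u : List ℕ} (h : runR HeData.T u 0 = 0) :
    (u.map HeCert.g).prod ∈ HeCert.H := by
  have h1 : HeCert.cert.toPt (((u.map HeCert.g).prod : G) : G ⧸ HeCert.H) =
      HeCert.cert.toPt ((1 : G) : G ⧸ HeCert.H) := by
    rw [Cert.toPt_mk, Cert.toPt_mk, map_one, Equiv.Perm.one_apply]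
    exact Fin.ext ((HeCert.cert.prod_ρ_val u HeCert.cert.base).trans h)
  have h2 := QuotientGroup.eq.1
    (Function.LeftInverse.injective HeCert.cert.ofPt_toPt h1)
  simpa using h2

theorem N0_le : N0 ≤ HeCert.H := by
  rw [N0, Subgroup.closure_le]
  rintro _ ⟨w, hw, rfl⟩
  have h : HeSpData.W.all (fun w => runR HeData.T w 0 == 0) = true := by decide +kernel
  exact fix_zero_mem (beq_iff_eq.1 (List.all_eq_true.1 h w hw))

/-- `a` acts on the suborbit as the matrix `M` does on the forms. -/
def Rel (a : G) (M : Matrix.symplecticGroup (Fin 2) K4) : Prop :=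
  ∀ c : Fin 2058, HeData.orb3.testBit c = true →
    HeData.orb3.testBit (HeCert.ρ a c : Fin 2058) = true ∧
      ∀ x : V, HeSpData.f (HeCert.ρ a c : Fin 2058) (enc ((M : Matrix _ _ K4) *ᵥ x)) =
        HeSpData.f c (enc x)

theorem rel_one : Rel 1 1 := fun c hc => by simp [hc]

theorem rel_mul {a b : G} {M M' : Matrix.symplecticGroup (Fin 2) K4} (ha : Rel a M)
    (hb : Rel b M') : Rel (a * b) (M * M') := by
  intro c hc
  obtain ⟨h1, h2⟩ := hb c hc
  obtain ⟨h3, h4⟩ := ha _ h1
  rw [map_mul, Equiv.Perm.mul_apply]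
  refine ⟨h3, fun x => ?_⟩
  rw [Submonoid.coe_mul, ← Matrix.mulVec_mulVec, h4, h2]

theorem rel_pow {a : G} {M : Matrix.symplecticGroup (Fin 2) K4} (ha : Rel a M) (k : ℕ) :
    Rel (a ^ k) (M ^ k) := by
  induction k with
  | zero => simpa using rel_one
  | succ k ih => rw [pow_succ, pow_succ]; exact rel_mul ih ha

theorem exists_rel {a : G} (ha : a ∈ N0) : ∃ M, Rel a M := by
  unfold N0 at ha
  induction ha using Subgroup.closure_induction with
  | mem e he =>
    obtain ⟨w, hw, rfl⟩ := he
    obtain ⟨k, hk, rfl⟩ := List.mem_iff_getElem.1 hw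
    have hk6 : k < 6 := hk
    refine ⟨⟨mkMat (codes.getD k []), SymplecticGroup.mem_iff.2 (mat_ok ⟨k, hk6⟩)⟩,
      fun c hc => ?_⟩
    have h := (allIn_iff _ _ _).1 gen_ok k (Nat.zero_le _) (by omega)
    have h := (allIn_iff _ _ _).1 h c (Nat.zero_le _) (by omega)
    rw [hc, cond_true, rowChk_iff, List.getD_eq_getElem _ _ hk] at h
    have e : ((HeCert.ρ ((HeSpData.W[k]).map HeCert.g).prod c : Fin 2058) : ℕ) =
        runR HeData.T (HeSpData.W[k]) c := HeCert.cert.prod_ρ_val _ c
    refine ⟨(congrArg HeData.orb3.testBit e).trans h.1, fun x => ?_⟩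
    have hm := (allIn_iff _ _ _).1 mv_ok k (Nat.zero_le _) (by omega)
    have hm := (allIn_iff _ _ _).1 hm (enc x) (Nat.zero_le _) (by have := enc_lt x; omega)
    rw [beq_iff_eq, dec_enc] at hm
    refine (congrArg₂ HeSpData.f e hm).trans ?_
    exact h.2 _ (enc_lt x)
  | one => exact ⟨1, rel_one⟩
  | mul a b _ _ ha hb =>
    obtain ⟨M, hM⟩ := ha
    obtain ⟨M', hM'⟩ := hb
    exact ⟨M * M', rel_mul hM hM'⟩
  | inv a _ ha =>
    obtain ⟨M, hM⟩ := ha
    haveI := HeOrd.finite_card.1
    refine ⟨M ^ (orderOf a - 1), ?_⟩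
    have e : a⁻¹ = a ^ (orderOf a - 1) := by
      refine inv_eq_of_mul_eq_one_left ?_
      rw [← pow_succ, Nat.sub_add_cancel (orderOf_pos a), pow_orderOf_eq_one]
    rw [e]
    exact rel_pow hM _

theorem rel_one_left {M : Matrix.symplecticGroup (Fin 2) K4} (h : Rel 1 M) : M = 1 := by
  have key : ∀ x : V, (M : Matrix _ _ K4) *ᵥ x = x := by
    intro x
    have hf : ∀ j, j < 5 → HeSpData.f (HeSpData.selP.getD j 0) (enc ((M : Matrix _ _ K4) *ᵥ x)) =
        HeSpData.f (HeSpData.selP.getD j 0) (enc x) := by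
      intro j hj
      have hm : HeSpData.selP.getD j 0 ∈ HeSpData.selP := by
        have hl : j < HeSpData.selP.length := hj
        rw [List.getD_eq_getElem _ _ hl]
        exact List.getElem_mem hl
      have hs := List.all_eq_true.1 sel_mem _ hm
      rw [Bool.and_eq_true, Nat.blt_eq] at hs
      have := (h ⟨_, hs.1⟩ hs.2).2 x
      simpa using this
    have e1 := (allIn_iff _ _ _).1 sep_vec _ (Nat.zero_le _)
      (by have := enc_lt ((M : Matrix _ _ K4) *ᵥ x); omega)
    have e2 := (allIn_iff _ _ _).1 sep_vec _ (Nat.zero_le _) (by have := enc_lt x; omega)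
    rw [beq_iff_eq] at e1 e2
    rw [hf 0 (by norm_num), hf 1 (by norm_num), hf 2 (by norm_num), hf 3 (by norm_num),
      hf 4 (by norm_num), e2] at e1
    rw [← dec_enc ((M : Matrix _ _ K4) *ᵥ x), ← e1, dec_enc]
  apply Subtype.ext
  refine Matrix.ext_of_mulVec_single fun i => ?_
  rw [key, OneMemClass.coe_one, Matrix.one_mulVec]

theorem rel_unique {a : G} (ha : a ∈ N0) {M M' : Matrix.symplecticGroup (Fin 2) K4}
    (h : Rel a M) (h' : Rel a M') : M = M' := by
  obtain ⟨M'', h''⟩ := exists_rel (inv_mem ha)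
  have e1 := rel_one_left (M := M'' * M) (by simpa using rel_mul h'' h)
  have e2 := rel_one_left (M := M'' * M') (by simpa using rel_mul h'' h')
  exact mul_left_cancel (e1.trans e2.symm)

/-- The map to the symplectic group. -/
noncomputable def theta : N0 →* Matrix.symplecticGroup (Fin 2) K4 where
  toFun a := (exists_rel a.2).choose
  map_one' := rel_unique (one_mem N0) (exists_rel (1 : N0).2).choose_spec rel_one
  map_mul' a b := rel_unique (a * b).2 (exists_rel (a * b).2).choose_spec
    (rel_mul (exists_rel a.2).choose_spec (exists_rel b.2).choose_spec)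

theorem card_H : Nat.card HeCert.H = 1958400 := by
  have h := HeCert.H.card_mul_index
  rw [HeCert.cert.index_eq, show HeCert.cert.n = 2058 from rfl, HeOrd.injective_card.2] at h
  exact Nat.eq_of_mul_eq_mul_right (show 0 < 2058 by norm_num) (h.trans (by norm_num))

theorem fixed_eq_one {a : G} (ha : a ∈ HeCert.H)
    (hfix : ∀ c : Fin 2058, HeData.orb3.testBit c = true → HeCert.ρ a c = c) : a = 1 := by
  haveI := HeOrd.finite_card.1
  obtain ⟨K', hK', hle⟩ := HeCert.cert.chainW_le HeSpData.chainH (HeCert.H.map HeCert.cert.ρ)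
    chainH_ok (fun l hl u hu => by
      have h := List.all_eq_true.1 (List.all_eq_true.1 chainH_mem l hl) u hu
      have h := (allIn_iff _ _ _).1 h 0 le_rfl (by norm_num)
      exact Subgroup.mem_map_of_mem _ (fix_zero_mem (beq_iff_eq.1 h)))
  rw [Subgroup.card_map_of_injective HeOrd.injective_card.1, card_H,
    show (HeSpData.chainH.map WLevel.sz).prod = 1958400 by decide +kernel] at hle
  have hpos : 0 < Nat.card K' := Nat.card_pos
  have h1 : Nat.card K' = 1 := by omega
  have hmem := hK' _ (Subgroup.mem_map_of_mem _ ha) fun l hl c hc =>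
    hfix c (by rw [hc]; exact List.all_eq_true.1 chainH_base l hl)
  rw [Subgroup.card_eq_one.1 h1, Subgroup.mem_bot] at hmem
  exact HeOrd.injective_card.1 (hmem.trans (map_one _).symm)

theorem theta_injective : Function.Injective theta := by
  rw [injective_iff_map_eq_one]
  intro a ha
  apply Subtype.ext
  refine fixed_eq_one (N0_le a.2) fun c hc => ?_
  have h : Rel a 1 := ha ▸ (exists_rel a.2).choose_spec
  obtain ⟨hd, hf⟩ := h c hc
  have hf' : ∀ i, i < 256 → HeSpData.f (HeCert.ρ a c : Fin 2058) i = HeSpData.f c i := by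
    intro i hi
    have key : allIn (fun i => enc (dec i) == i) 0 256 = true := by decide +kernel
    have := hf (dec i)
    rwa [OneMemClass.coe_one, Matrix.one_mulVec,
      beq_iff_eq.1 ((allIn_iff _ _ _).1 key i (Nat.zero_le _) (by omega))] at this
  have e1 := (allIn_iff _ _ _).1 sep_pt c (Nat.zero_le _) (by omega)
  have e2 := (allIn_iff _ _ _).1 sep_pt (HeCert.ρ a c : Fin 2058) (Nat.zero_le _) (by omega)
  rw [hc, cond_true, beq_iff_eq] at e1
  rw [hd, cond_true, beq_iff_eq, hf' 64 (by norm_num), hf' 16 (by norm_num), hf' 4 (by norm_num),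
    hf' 1 (by norm_num), e1] at e2
  exact Fin.ext e2.symm

/-- The word of a token. -/
def tokW (k : ℕ) : List ℕ :=
  bif Nat.blt k 6 then HeSpData.W.getD k [] else (HeSpData.W.getD 5 []).reverse

theorem toks_ok : HeSpData.chainN.map WLevel.U =
    HeSpData.toks.map (fun U => U.map fun u => (u.map tokW).flatten) := by decide +kernel

theorem words_mem : ∀ l ∈ HeSpData.chainN, ∀ u ∈ l.U, (u.map HeCert.g).prod ∈ N0 := by
  intro l hl u hu
  have h : l.U ∈ HeSpData.toks.map (fun U => U.map fun u => (u.map tokW).flatten) :=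
    toks_ok ▸ List.mem_map_of_mem hl
  obtain ⟨U, -, hU⟩ := List.mem_map.1 h
  rw [← hU] at hu
  obtain ⟨ks, -, rfl⟩ := List.mem_map.1 hu
  rw [List.map_flatten, List.prod_flatten]
  refine list_prod_mem fun e he => ?_
  simp only [List.mem_map] at he
  obtain ⟨_, ⟨_, ⟨k, -, rfl⟩, rfl⟩, rfl⟩ := he
  unfold tokW
  have hW : ∀ j, j < 6 → ((HeSpData.W.getD j []).map HeCert.g).prod ∈ N0 := fun j hj => by
    have hl : j < HeSpData.W.length := hj
    rw [List.getD_eq_getElem _ _ hl]
    exact Subgroup.subset_closure ⟨_, List.getElem_mem hl, rfl⟩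
  by_cases hk : k < 6
  · rw [show Nat.blt k 6 = true by rwa [Nat.blt_eq], cond_true]
    exact hW k hk
  · rw [show Nat.blt k 6 = false by rw [Bool.eq_false_iff, ne_eq, Nat.blt_eq]; exact hk, cond_false,
      ← inv_inv (((HeSpData.W.getD 5 []).reverse.map HeCert.g).prod)]
    refine inv_mem ?_
    rw [← prod_reverse_of_sq (p := HeCert.g) HeCert.cert.g_sq]
    simpa using hW 5 (by norm_num)

theorem card_N0_ge : 979200 ≤ Nat.card N0 := by
  haveI := HeOrd.finite_card.1
  obtain ⟨K', -, hle⟩ := HeCert.cert.chainW_le HeSpData.chainN (N0.map HeCert.cert.ρ)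
    chainN_ok (fun l hl u hu => Subgroup.mem_map_of_mem _ (words_mem l hl u hu))
  rw [Subgroup.card_map_of_injective HeOrd.injective_card.1,
    show (HeSpData.chainN.map WLevel.sz).prod = 979200 by decide +kernel] at hle
  exact le_trans (Nat.le_mul_of_pos_right _ Nat.card_pos) hle

theorem theta_bijective : Function.Bijective theta ∧ Nat.card N0 = 979200 := by
  haveI := HeOrd.finite_card.1
  have hsp : Nat.card (Matrix.symplecticGroup (Fin 2) K4) = 979200 := by
    rw [CfsgLib.SpGeom.card_Sp, K4.card_eq]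
    norm_num [Finset.prod_range_succ]
  have hle : Nat.card N0 ≤ 979200 := hsp ▸ Nat.card_le_card_of_injective _ theta_injective
  have hN : Nat.card N0 = 979200 := le_antisymm hle card_N0_ge
  exact ⟨(Nat.bijective_iff_injective_and_card theta).2 ⟨theta_injective, hN.trans hsp.symm⟩, hN⟩

theorem result : ∃ (N : Subgroup HeCert.H) (K : Type) (_ : Field K) (_ : Fintype K),
    N.Normal ∧ N.index = 2 ∧ Fintype.card K = 4 ∧
      Nonempty (N ≃* Matrix.symplecticGroup (Fin 2) K) := by
  haveI := HeOrd.finite_card.1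
  refine ⟨N0.subgroupOf HeCert.H, K4, inferInstance, inferInstance, ?_, ?_, K4.card_eq,
    ⟨(Subgroup.subgroupOfEquivOfLe N0_le).trans (MulEquiv.ofBijective theta theta_bijective.1)⟩⟩
  · exact Subgroup.normal_of_index_eq_two idx
  · exact idx
where
  idx : (N0.subgroupOf HeCert.H).index = 2 := by
    haveI := HeOrd.finite_card.1
    have h := (N0.subgroupOf HeCert.H).card_mul_index
    rw [Nat.card_congr (Subgroup.subgroupOfEquivOfLe N0_le).toEquiv, theta_bijective.2, card_H] at h
    omega

end H29.CosetCert.HeSp
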